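import Cfsg.Agent.H332.TC.D42
import Cfsg.Agent.H332.TC.G23
import Cfsg.Agent.H494.TC.Base

/-!
# S2452, rows `³D₄(2)` and `G₂(3)` in the form `PP` (helper860)

The elements of order 7 of helper332's finite certificates.
-/

set_option autoImplicit false

namespace Cfsg.Agent.H860.TW

open Cfsg.Agent.H494.TC

theorem pp_of_seven {G : Type*} [Group G] (h : ∃ x : G, orderOf x = 7 ∧ ∀ g : G, g ≠ 1 →
    ∃ u v : G, g = (u * x * u⁻¹) * (v * x * v⁻¹)) : PP G := by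
  obtain ⟨x, hx, h⟩ := h
  exact ⟨x, by rw [hx]; norm_num, by rw [hx]; norm_num, h⟩

/-- **S2452, row `³D₄(2)`** -/
theorem pp_td4_two {F : Type*} [Field F] [Fintype F] (hF : Fintype.card F = 2 ^ 3) :
    PP ↥(Lie.twistedD4 F 2) := by
  obtain ⟨φ⟩ := Cfsg.Agent.H347.HX.D42.iso F hF
  exact (pp_of_seven Cfsg.Agent.H332.TC.D42.all_K).of_equiv φ.symm

/-- **S2452, row `G₂(3)`** -/
theorem pp_g2_three {F : Type*} [Field F] [Fintype F] (hF : Fintype.card F = 3) :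
    PP ↥(Lie.chevG2.group F) := by
  classical
  have σ : ZMod 3 ≃+* F := ZMod.ringEquivOfPrime F Nat.prime_three hF
  obtain ⟨e⟩ := Cfsg.Agent.H347.HX.G23.iso.2.2
  obtain ⟨φ⟩ : Nonempty (Cfsg.Agent.H347.HX.G23.A ≃* ↥(Lie.chevG2.group F)) :=
    ⟨e.trans (ChevalleyStructure.FieldIso.groupEquiv Lie.chevG2 σ)⟩
  exact (pp_of_seven Cfsg.Agent.H332.TC.G23.all_A).of_equiv φ.symm

end Cfsg.Agent.H860.TW
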